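import Mathlib

/-!
# Groups acting compatibly on points and on vectors up to scalars (helper94)

Generic lemmas: the relation "`g` permutes the points as the matrix `s` permutes their vectors,
up to scalars" defines a subgroup of the product; a subgroup of a product which projects
injectively to a proper part of a group of twice the order of the second factor and onto the
second factor is the graph of an isomorphism; orbit counting for a chain of stabilisers.
-/

set_option autoImplicit false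

namespace Cfsg.Agent.H94.HS

section RelSec

variable {G : Type*} [Group G] {Ω : Type*} (ρ : G →* Equiv.Perm Ω)
  {S : Type*} [Group S] {n : Type*} [Fintype n] [DecidableEq n] {F : Type*} [Field F]
  (φ : S →* Matrix n n F) (cv : Ω → n → F)

/-- `g` acts on the points as the matrix of `s` acts on their vectors, up to scalars -/
def Rel (g : G) (s : S) : Prop :=
  ∀ p : Ω, ∃ l : F, l ≠ 0 ∧ Matrix.mulVec (φ s) (cv ((ρ g)⁻¹ p)) = l • cv p

theorem rel_one : Rel ρ φ cv 1 1 := by
  intro p
  exact ⟨1, one_ne_zero, by simp⟩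

theorem rel_mul {g g' : G} {s s' : S} (h : Rel ρ φ cv g s) (h' : Rel ρ φ cv g' s') :
    Rel ρ φ cv (g * g') (s * s') := by
  intro p
  obtain ⟨l, hl, e⟩ := h p
  obtain ⟨l', hl', e'⟩ := h' ((ρ g)⁻¹ p)
  refine ⟨l' * l, mul_ne_zero hl' hl, ?_⟩
  rw [map_mul, map_mul, mul_inv_rev, Equiv.Perm.mul_apply, ← Matrix.mulVec_mulVec, e',
    Matrix.mulVec_smul, e, smul_smul]

theorem rel_inv {g : G} {s : S} (h : Rel ρ φ cv g s) : Rel ρ φ cv g⁻¹ s⁻¹ := by
  intro p
  obtain ⟨l, hl, e⟩ := h (ρ g p)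
  refine ⟨l⁻¹, inv_ne_zero hl, ?_⟩
  have e3 : (ρ g⁻¹)⁻¹ p = ρ g p := by rw [map_inv, inv_inv]
  rw [e3]
  have e2 : (ρ g)⁻¹ (ρ g p) = p := by simp
  rw [e2] at e
  have h1 : φ s⁻¹ * φ s = 1 := by rw [← map_mul, inv_mul_cancel, map_one]
  have h2 : Matrix.mulVec (φ s⁻¹) (Matrix.mulVec (φ s) (cv p)) = cv p := by
    rw [Matrix.mulVec_mulVec, h1, Matrix.one_mulVec]
  rw [e, Matrix.mulVec_smul] at h2
  rw [← h2, smul_smul, inv_mul_cancel₀ hl, one_smul]

/-- the graph of the relation over a subgroup -/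
def graphSub (H : Subgroup G) : Subgroup (G × S) where
  carrier := {x | x.1 ∈ H ∧ Rel ρ φ cv x.1 x.2}
  one_mem' := ⟨H.one_mem, rel_one ρ φ cv⟩
  mul_mem' := fun ha hb => ⟨H.mul_mem ha.1 hb.1, rel_mul ρ φ cv ha.2 hb.2⟩
  inv_mem' := fun ha => ⟨H.inv_mem ha.1, rel_inv ρ φ cv ha.2⟩

theorem mem_graphSub (H : Subgroup G) (x : G × S) :
    x ∈ graphSub ρ φ cv H ↔ x.1 ∈ H ∧ Rel ρ φ cv x.1 x.2 := Iff.rfl

end RelSec

/-- a subgroup of `G × S` inside `H × S` which meets `1 × S` trivially, projects onto `S`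
and misses some element of `H`, where `|H| = 2 |S|`, is the graph of an isomorphism from a
subgroup of index `2` in `H` onto `S` -/
theorem graph_iso {G S : Type*} [Group G] [Group S] [Finite S] (H : Subgroup G) [Finite H]
    (Γ : Subgroup (G × S))
    (ha : ∀ x ∈ Γ, x.1 ∈ H)
    (hb : ∀ x ∈ Γ, x.1 = 1 → x.2 = 1)
    (hc : ∀ s : S, ∃ g : G, (g, s) ∈ Γ)
    (hd : ∃ k ∈ H, ∀ s : S, (k, s) ∉ Γ)
    (he : Nat.card H = 2 * Nat.card S) :
    ∃ N : Subgroup G, N ≤ H ∧ N.relIndex H = 2 ∧ Nonempty (N ≃* S) := by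
  let f : Γ →* G := (MonoidHom.fst G S).comp Γ.subtype
  have hf : Function.Injective f := by
    rw [injective_iff_map_eq_one]
    intro x hx
    have hx' : x.1.1 = 1 := hx
    have h2 := hb x.1 x.2 hx'
    exact Subtype.ext (Prod.ext hx' h2)
  let p2 : Γ →* S := (MonoidHom.snd G S).comp Γ.subtype
  have hp2 : Function.Surjective p2 := by
    intro s
    obtain ⟨g, hg⟩ := hc s
    exact ⟨⟨(g, s), hg⟩, rfl⟩
  have hNH : f.range ≤ H := by
    rintro _ ⟨x, rfl⟩
    exact ha x.1 x.2
  have hne : f.range ≠ H := by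
    obtain ⟨k, hk, hk2⟩ := hd
    intro h
    rw [← h] at hk
    obtain ⟨x, hx⟩ := hk
    have hx' : x.1.1 = k := hx
    refine hk2 x.1.2 ?_
    have h3 : x.1 = (k, x.1.2) := Prod.ext hx' rfl
    rw [← h3]
    exact x.2
  have hfin : Finite Γ :=
    Finite.of_injective (fun x : Γ => (⟨f x, ha x.1 x.2⟩ : H))
      (fun a b h => hf (congrArg Subtype.val h))
  have e1 : Γ ≃* f.range := MonoidHom.ofInjective hf
  have hcard1 : Nat.card f.range = Nat.card Γ := Nat.card_congr e1.symm.toEquiv
  have hcard2 : Nat.card S ≤ Nat.card Γ := Nat.card_le_card_of_surjective p2 hp2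
  have hrel : f.range.relIndex H * Nat.card f.range = Nat.card H := by
    have h1 := Subgroup.index_mul_card (f.range.subgroupOf H)
    have h2 : Nat.card (f.range.subgroupOf H) = Nat.card f.range :=
      Nat.card_congr (Subgroup.subgroupOfEquivOfLe hNH).toEquiv
    rw [h2] at h1
    exact h1
  have hri : f.range.relIndex H ≠ 1 := by
    intro h
    rw [Subgroup.relIndex_eq_one] at h
    exact hne (le_antisymm hNH h)
  have hSpos : 0 < Nat.card S := Nat.card_pos
  have hHpos : 0 < Nat.card H := Nat.card_pos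
  have hri0 : f.range.relIndex H ≠ 0 := by
    intro h
    rw [h, zero_mul] at hrel
    omega
  have hle : Nat.card Γ ≤ Nat.card S := by
    by_contra hcon
    have hcon := Nat.lt_of_not_le hcon
    have h2 : 2 ≤ f.range.relIndex H := by omega
    rw [hcard1] at hrel
    nlinarith
  have hcardeq : Nat.card Γ = Nat.card S := le_antisymm hle hcard2
  have hbij : Function.Bijective p2 :=
    (Nat.bijective_iff_surjective_and_card p2).mpr ⟨hp2, hcardeq⟩
  have e2 : Γ ≃* S := MulEquiv.ofBijective p2 hbij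
  refine ⟨f.range, hNH, ?_, ⟨e1.symm.trans e2⟩⟩
  rw [hcard1, hcardeq, he] at hrel
  nlinarith

section Level

variable {S : Type*} [Group S] {α : Type*} (act : S → α → α)
  (h1 : ∀ a, act 1 a = a) (hm : ∀ s t a, act (s * t) a = act s (act t a))

/-- the stabiliser of a point under an action given as a function -/
def fixer (b : α) : Subgroup S where
  carrier := {s | act s b = b}
  one_mem' := h1 b
  mul_mem' := fun {s t} hs ht => by
    have hs' : act s b = b := hs
    have ht' : act t b = b := ht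
    show act (s * t) b = b
    rw [hm, ht', hs']
  inv_mem' := fun {s} hs => by
    have hs' : act s b = b := hs
    show act s⁻¹ b = b
    have h2 : act s⁻¹ (act s b) = b := by rw [← hm, inv_mul_cancel, h1]
    rw [hs'] at h2
    exact h2

theorem mem_fixer (b : α) (s : S) : s ∈ fixer act h1 hm b ↔ act s b = b := Iff.rfl

/-- one level of a stabiliser chain -/
theorem level_step [Finite S] (K : Subgroup S) (b : α) (O : Finset α)
    (hO : ∀ x ∈ O, ∃ s ∈ K, act s b = x) :
    O.card * Nat.card ↥(K ⊓ fixer act h1 hm b) ≤ Nat.card K := by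
  classical
  let L : Subgroup K := (K ⊓ fixer act h1 hm b).subgroupOf K
  have hL : Nat.card L = Nat.card ↥(K ⊓ fixer act h1 hm b) :=
    Nat.card_congr (Subgroup.subgroupOfEquivOfLe inf_le_left).toEquiv
  have hidx := Subgroup.index_mul_card L
  rw [hL] at hidx
  rw [← hidx]
  refine Nat.mul_le_mul_right _ ?_
  choose r hrK hrb using hO
  let fq : {x // x ∈ O} → K ⧸ L := fun x => QuotientGroup.mk (⟨r x.1 x.2, hrK x.1 x.2⟩ : K)
  have hinj : Function.Injective fq := by
    intro x y hxy
    have h2 : (⟨r x.1 x.2, hrK x.1 x.2⟩ : K)⁻¹ * ⟨r y.1 y.2, hrK y.1 y.2⟩ ∈ L :=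
      QuotientGroup.eq.mp hxy
    have h3 : (r x.1 x.2)⁻¹ * r y.1 y.2 ∈ fixer act h1 hm b := (Subgroup.mem_inf.mp h2).2
    rw [mem_fixer, hm, hrb y.1 y.2] at h3
    have h4 : act (r x.1 x.2) (act (r x.1 x.2)⁻¹ y.1) = x.1 := by rw [h3, hrb]
    rw [← hm, mul_inv_cancel, h1] at h4
    exact Subtype.ext h4.symm
  have hc := Nat.card_le_card_of_injective fq hinj
  have hO' : Nat.card {x // x ∈ O} = O.card := by
    rw [Nat.card_eq_fintype_card, Fintype.card_coe]
  rw [hO'] at hc
  exact hc

end Level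

end Cfsg.Agent.H94.HS
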