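import Cfsg.Agent.H94.HS.F4
import Cfsg.Agent.H94.HS.Graph

/-!
# Checkers for matrix certificates over the field with four elements (helper94)
-/

set_option autoImplicit false

namespace Cfsg.Agent.H94.HS

/-- decode a field element -/
def d2 : ℕ → F4
  | 0 => F4.z
  | 1 => F4.o
  | 2 => F4.w
  | _ => F4.v

/-- decode a vector from an 8-bit code -/
def decV (c : ℕ) : V4 :=
  ⟨d2 (Nat.mod c 4), d2 (Nat.mod (Nat.div c 4) 4), d2 (Nat.mod (Nat.div c 16) 4),
    d2 (Nat.mod (Nat.div c 64) 4)⟩

/-- decode a matrix from a 32-bit code -/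
def decM (c : ℕ) : M4 :=
  ⟨decV (Nat.mod c 256), decV (Nat.mod (Nat.div c 256) 256),
    decV (Nat.mod (Nat.div c 65536) 256), decV (Nat.mod (Nat.div c 16777216) 256)⟩

/-- code of a field element -/
def e2 : F4 → ℕ
  | F4.z => 0
  | F4.o => 1
  | F4.w => 2
  | F4.v => 3

/-- code of a vector -/
def encV (a : V4) : ℕ :=
  Nat.add (Nat.add (e2 a.x0) (Nat.mul 4 (e2 a.x1)))
    (Nat.add (Nat.mul 16 (e2 a.x2)) (Nat.mul 64 (e2 a.x3)))

/-- the code of the identity matrix -/
def oneCode : ℕ := 1074791425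

theorem decM_oneCode : decM oneCode = M4.one := by decide +kernel

/-- the `k`-th matrix of a list of codes -/
def matAt (L : List ℕ) (k : ℕ) : M4 := decM (L.getD k oneCode)

theorem matAt_of_le (L : List ℕ) (k : ℕ) (h : L.length ≤ k) : matAt L k = M4.one := by
  unfold matAt
  rw [List.getD_eq_default _ _ h, decM_oneCode]

/-- check of a straight line program: entry `k`, `k + 1`, ... are products of earlier entries -/
def slpChk (L : List ℕ) : ℕ → List (ℕ × ℕ) → Bool
  | _, [] => true
  | k, i :: r =>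
    (Nat.blt i.1 k && (Nat.blt i.2 k &&
      decide (matAt L k = M4.mul (matAt L i.1) (matAt L i.2)))) && slpChk L (k + 1) r

theorem slpChk_sound (P : M4 → Prop) (hmul : ∀ A B, P A → P B → P (M4.mul A B)) (L : List ℕ) :
    ∀ (ins : List (ℕ × ℕ)) (k : ℕ), slpChk L k ins = true → (∀ j, j < k → P (matAt L j)) →
      ∀ j, j < k + ins.length → P (matAt L j) := by
  intro ins
  induction ins with
  | nil =>
    intro k _ h j hj
    exact h j (by simpa using hj)
  | cons i r ih =>
    intro k hc h j hj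
    unfold slpChk at hc
    rw [Bool.and_eq_true, Bool.and_eq_true, Bool.and_eq_true] at hc
    obtain ⟨⟨h1, h2, h3⟩, h4⟩ := hc
    have h1' : i.1 < k := by simpa [Nat.blt_eq] using h1
    have h2' : i.2 < k := by simpa [Nat.blt_eq] using h2
    have h3' : matAt L k = M4.mul (matAt L i.1) (matAt L i.2) := of_decide_eq_true h3
    refine ih (k + 1) h4 ?_ j (by rw [List.length_cons] at hj; omega)
    intro j' hj'
    rcases Nat.lt_succ_iff_lt_or_eq.mp hj' with hlt | rfl
    · exact h j' hlt
    · rw [h3']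
      exact hmul _ _ (h _ h1') (h _ h2')

/-- strictly increasing list above a bound -/
def incB : ℕ → List ℕ → Bool
  | _, [] => true
  | prev, x :: r => Nat.blt prev x && incB x r

theorem incB_lt : ∀ (l : List ℕ) (prev : ℕ), incB prev l = true → ∀ x ∈ l, prev < x := by
  intro l
  induction l with
  | nil => intro prev _ x hx; simp at hx
  | cons a r ih =>
    intro prev h x hx
    unfold incB at h
    rw [Bool.and_eq_true] at h
    have h1 : prev < a := by simpa [Nat.blt_eq] using h.1
    rcases List.mem_cons.mp hx with rfl | hx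
    · exact h1
    · exact lt_trans h1 (ih a h.2 x hx)

theorem incB_nodup : ∀ (l : List ℕ) (prev : ℕ), incB prev l = true → l.Nodup := by
  intro l
  induction l with
  | nil => intro _ _; exact List.nodup_nil
  | cons a r ih =>
    intro prev h
    unfold incB at h
    rw [Bool.and_eq_true] at h
    rw [List.nodup_cons]
    refine ⟨fun hm => ?_, ih a h.2⟩
    exact lt_irrefl _ (incB_lt r a h.2 a hm)

/-- check of one level of a stabiliser chain: the listed matrices fix the earlier base vectors and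
map the base vector `b` to vectors of strictly increasing codes -/
def lvlChk (L : List ℕ) (fixed : List V4) (b : V4) (idx : List ℕ) : Bool :=
  idx.all (fun k => fixed.all (fun f => decide (M4.mv (matAt L k) f = f))) &&
    match idx.map (fun k => encV (M4.mv (matAt L k) b)) with
    | [] => true
    | x :: r => incB x r

theorem lvlChk_fix (L : List ℕ) (fixed : List V4) (b : V4) (idx : List ℕ)
    (h : lvlChk L fixed b idx = true) : ∀ k ∈ idx, ∀ f ∈ fixed, M4.mv (matAt L k) f = f := by
  unfold lvlChk at h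
  rw [Bool.and_eq_true] at h
  intro k hk f hf
  have h1 := List.all_eq_true.mp h.1 k hk
  exact of_decide_eq_true (List.all_eq_true.mp h1 f hf)

theorem lvlChk_nodup (L : List ℕ) (fixed : List V4) (b : V4) (idx : List ℕ)
    (h : lvlChk L fixed b idx = true) : (idx.map (fun k => M4.mv (matAt L k) b)).Nodup := by
  unfold lvlChk at h
  rw [Bool.and_eq_true] at h
  have h2 := h.2
  have hn : (idx.map (fun k => encV (M4.mv (matAt L k) b))).Nodup := by
    generalize idx.map (fun k => encV (M4.mv (matAt L k) b)) = l at h2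
    cases l with
    | nil => exact List.nodup_nil
    | cons x r =>
      have h3 : incB x r = true := h2
      rw [List.nodup_cons]
      exact ⟨fun hm => lt_irrefl _ (incB_lt r x h3 x hm), incB_nodup r x h3⟩
  have hm : idx.map (fun k => encV (M4.mv (matAt L k) b)) =
      (idx.map (fun k => M4.mv (matAt L k) b)).map encV := by
    rw [List.map_map]; rfl
  rw [hm] at hn
  exact List.Nodup.of_map encV hn

section Act

variable {S : Type*} [Group S] (φ : S →* Matrix I4 I4 F4)

/-- the action on vectors -/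
def actV (s : S) (x : I4 → F4) : I4 → F4 := Matrix.mulVec (φ s) x

theorem actV_one (x : I4 → F4) : actV φ 1 x = x := by
  unfold actV
  rw [map_one, Matrix.one_mulVec]

theorem actV_mul (s t : S) (x : I4 → F4) : actV φ (s * t) x = actV φ s (actV φ t x) := by
  unfold actV
  rw [map_mul, Matrix.mulVec_mulVec]

/-- the stabiliser of a vector -/
def fixV (b : V4) : Subgroup S := fixer (actV φ) (actV_one φ) (actV_mul φ) (toVec b)

theorem mem_fixV (b : V4) (s : S) : s ∈ fixV φ b ↔ Matrix.mulVec (φ s) (toVec b) = toVec b :=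
  Iff.rfl

theorem mem_fixV_of (b : V4) (s : S) (A : M4) (hs : φ s = toMat A) (h : M4.mv A b = b) :
    s ∈ fixV φ b := by
  rw [mem_fixV, hs, ← toVec_mv, h]

/-- a checked level bounds the order of a subgroup by that of a stabiliser -/
theorem lvl_bound [Finite S] (K : Subgroup S) (mat : ℕ → M4) (b : V4) (idx : List ℕ)
    (hK : ∀ k ∈ idx, ∃ s ∈ K, φ s = toMat (mat k))
    (hnd : (idx.map (fun k => M4.mv (mat k) b)).Nodup) :
    idx.length * Nat.card ↥(K ⊓ fixV φ b) ≤ Nat.card K := by
  classical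
  have hnd2 : (idx.map (fun k => toVec (M4.mv (mat k) b))).Nodup := by
    have h := List.Nodup.map toVec_injective hnd
    rw [List.map_map] at h
    exact h
  have hcard : (idx.map (fun k => toVec (M4.mv (mat k) b))).toFinset.card = idx.length := by
    rw [List.toFinset_card_of_nodup hnd2, List.length_map]
  rw [← hcard]
  refine level_step (actV φ) (actV_one φ) (actV_mul φ) K (toVec b) _ ?_
  intro x hx
  rw [List.mem_toFinset, List.mem_map] at hx
  obtain ⟨k, hk, rfl⟩ := hx
  obtain ⟨s, hs, e⟩ := hK k hk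
  refine ⟨s, hs, ?_⟩
  show Matrix.mulVec (φ s) (toVec b) = _
  rw [e, toVec_mv]

end Act

theorem toMat_injective : Function.Injective toMat := by
  intro A B h
  have h0 : toVec A.r0 = toVec B.r0 := congrFun h (Sum.inl 0)
  have h1 : toVec A.r1 = toVec B.r1 := congrFun h (Sum.inl 1)
  have h2 : toVec A.r2 = toVec B.r2 := congrFun h (Sum.inr 0)
  have h3 : toVec A.r3 = toVec B.r3 := congrFun h (Sum.inr 1)
  cases A; cases B
  simp only [M4.mk.injEq]
  exact ⟨toVec_injective h0, toVec_injective h1, toVec_injective h2, toVec_injective h3⟩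

/-- a matrix with symplectic code is symplectic -/
theorem toMat_mem_sp (A : M4) (h : M4.mul (M4.mul A M4.jm) (M4.tr A) = M4.jm) :
    toMat A ∈ Matrix.symplecticGroup (Fin 2) F4 := by
  rw [SymplecticGroup.mem_iff, ← toMat_jm, ← toMat_tr, ← toMat_mul, ← toMat_mul, h]

/-- the scalar matrix -/
def M4.sc (l : F4) : M4 :=
  ⟨⟨l, F4.z, F4.z, F4.z⟩, ⟨F4.z, l, F4.z, F4.z⟩, ⟨F4.z, F4.z, l, F4.z⟩, ⟨F4.z, F4.z, F4.z, l⟩⟩

theorem toMat_sc (l : F4) : toMat (M4.sc l) = l • (1 : Matrix I4 I4 F4) := by
  ext i j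
  rcases i with i | i <;> rcases j with j | j <;> fin_cases i <;> fin_cases j <;>
    simp [toMat_apply, toVec, M4.sc] <;> rfl

theorem sc_symp : ∀ l : F4, M4.mul (M4.mul (M4.sc l) M4.jm) (M4.tr (M4.sc l)) = M4.jm → l = F4.o := by
  decide

theorem eigen_eq : ∀ l0 lj mj : F4, ∀ j : Fin 3,
    V4.add (V4.smul l0 ⟨F4.o, F4.z, F4.z, F4.z⟩)
      (V4.smul lj (![⟨F4.z, F4.o, F4.z, F4.z⟩, ⟨F4.z, F4.z, F4.o, F4.z⟩, ⟨F4.z, F4.z, F4.z, F4.o⟩] j)) =
      V4.smul mj (V4.add ⟨F4.o, F4.z, F4.z, F4.z⟩
        (![⟨F4.z, F4.o, F4.z, F4.z⟩, ⟨F4.z, F4.z, F4.o, F4.z⟩, ⟨F4.z, F4.z, F4.z, F4.o⟩] j)) →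
      lj = l0 := by
  decide

/-- a matrix with the four basis vectors as eigenvectors for one eigenvalue is scalar -/
theorem eq_smul_one_of_basis (A : Matrix I4 I4 F4) (l : F4)
    (h0 : Matrix.mulVec A (toVec ⟨F4.o, F4.z, F4.z, F4.z⟩) = l • toVec ⟨F4.o, F4.z, F4.z, F4.z⟩)
    (h1 : Matrix.mulVec A (toVec ⟨F4.z, F4.o, F4.z, F4.z⟩) = l • toVec ⟨F4.z, F4.o, F4.z, F4.z⟩)
    (h2 : Matrix.mulVec A (toVec ⟨F4.z, F4.z, F4.o, F4.z⟩) = l • toVec ⟨F4.z, F4.z, F4.o, F4.z⟩)
    (h3 : Matrix.mulVec A (toVec ⟨F4.z, F4.z, F4.z, F4.o⟩) = l • toVec ⟨F4.z, F4.z, F4.z, F4.o⟩) :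
    A = l • (1 : Matrix I4 I4 F4) := by
  have key : ∀ (a b : I4) (e : V4), toVec e = Pi.single b 1 →
      Matrix.mulVec A (toVec e) = l • toVec e → A a b = (l • (1 : Matrix I4 I4 F4)) a b := by
    intro a b e hb h
    have h' := congrFun h a
    rw [hb, Matrix.mulVec_single_one] at h'
    rw [Matrix.smul_apply, Matrix.one_apply]
    rw [Pi.smul_apply, Pi.single_apply] at h'
    exact h'
  ext a b
  rcases b with b | b <;> fin_cases b
  · exact key a _ _ (by funext j; rcases j with j | j <;> fin_cases j <;> rfl) h0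
  · exact key a _ _ (by funext j; rcases j with j | j <;> fin_cases j <;> rfl) h1
  · exact key a _ _ (by funext j; rcases j with j | j <;> fin_cases j <;> rfl) h2
  · exact key a _ _ (by funext j; rcases j with j | j <;> fin_cases j <;> rfl) h3

end Cfsg.Agent.H94.HS
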