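import Cfsg.Agent.H94.HS.Main
import Cfsg.Prelude.Def_Sporadic

/-!
# The point stabiliser of the Held group on 2058 points (helper94)

`he_stab_sp`: the subgroup `Hp = ⟨a, c, d, e, f, (ab)^2, (bcde)^7⟩` of the presented Held group
has a subgroup of index `2` isomorphic to `Sp₄(4)`; `he_perm`: the same for the stabiliser of a
point in the image of the permutation representation on 2058 points.
-/

set_option autoImplicit false

namespace Cfsg.Agent.H94.HS

open Cfsg.Agent.H35 Cfsg.Spor Cfsg.Agent.H10 Cfsg.Agent.H10.HeT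

theorem pdN_pos : 0 < t1683_pd.N := by decide

theorem card_Hp : Nat.card Hp = 1958400 := by
  have h1 := Subgroup.card_mul_index Hp
  have hi : Hp.index = 2058 := tc_index perm_hyp
  have hm : Nat.card He = 4030387200 := main.1
  rw [hi, hm] at h1
  have h2 : Nat.card Hp * 2058 = 1958400 * 2058 := by
    rw [h1]
  exact Nat.eq_of_mul_eq_mul_right (by decide : 0 < 2058) h2

/-- the subgroup `Hp` has a subgroup of index two isomorphic to the symplectic group -/
theorem he_stab_sp : ∃ N : Subgroup He, N ≤ Hp ∧ N.relIndex Hp = 2 ∧ Nonempty (N ≃* Sp4) := by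
  obtain ⟨ρ, hw, -, -⟩ := tc_core perm_hyp pdN_pos
  exact he_sp ρ hw card_Hp

/-- transport of an index-two subgroup of a point stabiliser to the image of a faithful
permutation representation -/
theorem perm_transport {G : Type*} [Group G] {n : ℕ} (ρ : G →* Equiv.Perm (Fin n))
    (hinj : Function.Injective ρ) (b : Fin n) (N : Subgroup G) (hN : N ≤ stabOf ρ b)
    (hidx : N.relIndex (stabOf ρ b) = 2) :
    ∃ N' : Subgroup (MulAction.stabilizer ρ.range b), N'.index = 2 ∧ Nonempty (N' ≃* N) := by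
  let e : G ≃* ρ.range := MonoidHom.ofInjective hinj
  have hst : MulAction.stabilizer ρ.range b = (stabOf ρ b).map e.toMonoidHom := by
    ext x
    rw [MulAction.mem_stabilizer_iff, Subgroup.mem_map]
    constructor
    · intro hx
      obtain ⟨g, hg⟩ := x.2
      refine ⟨g, ?_, Subtype.ext hg⟩
      rw [mem_stabOf, hg]
      exact hx
    · rintro ⟨g, hg, rfl⟩
      exact hg
  have hle : N.map e.toMonoidHom ≤ MulAction.stabilizer ρ.range b := by
    rw [hst]
    exact Subgroup.map_mono hN
  refine ⟨(N.map e.toMonoidHom).subgroupOf (MulAction.stabilizer ρ.range b), ?_, ⟨?_⟩⟩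
  · show (N.map e.toMonoidHom).relIndex (MulAction.stabilizer ρ.range b) = 2
    rw [hst, Subgroup.relIndex_map_map_of_injective (f := e.toMonoidHom) N (stabOf ρ b) e.injective,
      hidx]
  · exact (Subgroup.subgroupOfEquivOfLe hle).trans
      (Subgroup.equivMapOfInjective N e.toMonoidHom e.injective).symm

/-- the Held group as a transitive permutation group of degree 2058 with the structure of its
point stabiliser -/
theorem he_perm : ∃ H : Subgroup (Equiv.Perm (Fin t1683_pd.N)), Cfsg.IsHe H ∧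
    MulAction.IsPretransitive H (Fin t1683_pd.N) ∧
    ∃ N : Subgroup (MulAction.stabilizer H (⟨0, pdN_pos⟩ : Fin t1683_pd.N)),
      N.index = 2 ∧ Nonempty (N ≃* Sp4) := by
  obtain ⟨ρ, hw, hst, htr⟩ := tc_core perm_hyp pdN_pos
  obtain ⟨N, hN, hidx, ⟨f⟩⟩ := he_sp ρ hw card_Hp
  have hsimp : IsSimpleGroup He := main.2
  have hinj : Function.Injective ρ := by
    rw [← MonoidHom.ker_eq_bot_iff]
    rcases IsSimpleGroup.eq_bot_or_eq_top_of_normal ρ.ker inferInstance with h | h
    · exact h
    · exfalso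
      obtain ⟨g, hg⟩ := htr ⟨1, by decide⟩
      have hg1 : g ∈ ρ.ker := by rw [h]; exact Subgroup.mem_top g
      rw [MonoidHom.mem_ker] at hg1
      rw [hg1] at hg
      exact absurd (congrArg Fin.val hg) (by decide)
  let e : He ≃* ρ.range := MonoidHom.ofInjective hinj
  refine ⟨ρ.range, ⟨?_, ?_⟩, ?_, ?_⟩
  · exact e.symm.isSimpleGroup
  · rw [← Nat.card_congr e.toEquiv, main.1]
  · constructor
    intro x y
    obtain ⟨g1, hg1⟩ := htr x
    obtain ⟨g2, hg2⟩ := htr y
    refine ⟨⟨ρ (g2 * g1⁻¹), ⟨_, rfl⟩⟩, ?_⟩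
    show ρ (g2 * g1⁻¹) x = y
    rw [map_mul, Equiv.Perm.mul_apply, map_inv, ← hg1, perm_inv_apply_self, hg2]
  · rw [hst] at hN hidx
    obtain ⟨N', h1, ⟨f'⟩⟩ := perm_transport ρ hinj ⟨0, pdN_pos⟩ N hN hidx
    exact ⟨N', h1, ⟨f'.trans f⟩⟩

end Cfsg.Agent.H94.HS
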