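import Cfsg.Agent.H94.HS.Data
import Cfsg.Agent.H10.HeT.Main
import Cfsg.Agent.H50.SpCard

/-!
# An index-2 subgroup of the point stabiliser of the Held group is `Sp₄(4)` (helper94)

In helper35's permutation representation of the presented Held group on the 2058 cosets of
`H = ⟨a, c, d, e, f, (ab)^2, (bcde)^7⟩`, the suborbit of length 425 carries a system of 85 blocks
labelled by the points of `PG(3, 4)`; six of the generators act on them as symplectic matrices,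
which generate `Sp₄(4)`, and `(ab)^2` acts semilinearly.
-/

set_option autoImplicit false

namespace Cfsg.Agent.H94.HS

open Cfsg.Agent.H35 Cfsg.Spor Cfsg.Agent.H10 Cfsg.Agent.H10.HeT

/-- the symplectic group of dimension four over the field with four elements -/
abbrev Sp4 : Type := ↥(Matrix.symplecticGroup (Fin 2) F4)

/-- the inclusion of the symplectic group into the matrices -/
def spHom : Sp4 →* Matrix I4 I4 F4 := (Matrix.symplecticGroup (Fin 2) F4).subtype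

/-- the vector of a point -/
def cvF (p : Fin t1683_pd.N) : I4 → F4 := toVec (cvc p.val)

theorem card_sp4 : Nat.card Sp4 = 979200 := by
  rw [Cfsg.Agent.H50.SpCard.card_sp F4.card_eq 2]
  decide

theorem eigen1 : ∀ l0 lj mj : F4,
    V4.add (V4.smul l0 ⟨F4.o, F4.z, F4.z, F4.z⟩) (V4.smul lj ⟨F4.z, F4.o, F4.z, F4.z⟩) =
      V4.smul mj ⟨F4.o, F4.o, F4.z, F4.z⟩ → lj = l0 := by
  decide

theorem eigen2 : ∀ l0 lj mj : F4,
    V4.add (V4.smul l0 ⟨F4.o, F4.z, F4.z, F4.z⟩) (V4.smul lj ⟨F4.z, F4.z, F4.o, F4.z⟩) =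
      V4.smul mj ⟨F4.o, F4.z, F4.o, F4.z⟩ → lj = l0 := by
  decide

theorem eigen3 : ∀ l0 lj mj : F4,
    V4.add (V4.smul l0 ⟨F4.o, F4.z, F4.z, F4.z⟩) (V4.smul lj ⟨F4.z, F4.z, F4.z, F4.o⟩) =
      V4.smul mj ⟨F4.o, F4.z, F4.z, F4.o⟩ → lj = l0 := by
  decide

section Rep

variable (ρ : He →* Equiv.Perm (Fin t1683_pd.N))
  (hw : ∀ (w : List He.Gen) (p : Fin t1683_pd.N),
    t1683_pd.walk w p.val = ((ρ (uw he_gen w))⁻¹ p).val)

include hw

theorem rel_at (w : List He.Gen) (s : Sp4) (h : Rel ρ spHom cvF (uw he_gen w) s) (n : ℕ)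
    (hn : n < t1683_pd.N) : ∃ l : F4, l ≠ 0 ∧
      Matrix.mulVec (spHom s) (toVec (cvc (t1683_pd.walk w n))) = l • toVec (cvc n) := by
  obtain ⟨l, hl, e⟩ := h ⟨n, hn⟩
  refine ⟨l, hl, ?_⟩
  have e1 : cvF ((ρ (uw he_gen w))⁻¹ ⟨n, hn⟩) = toVec (cvc (t1683_pd.walk w n)) := by
    unfold cvF
    rw [← hw]
  rw [e1] at e
  exact e

theorem gen_rel (w : List He.Gen) (k : ℕ)
    (hk : allR (genOK w (matAt slpCodes k)) 2058 12 0 = true) (s : Sp4)
    (hs : spHom s = toMat (matAt slpCodes k)) : Rel ρ spHom cvF (uw he_gen w) s := by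
  intro p
  have h := allR_all _ _ 12 (by decide) hk p.val p.isLt
  unfold genOK at h
  simp only [Bool.or_eq_true, decide_eq_true_eq] at h
  have e : cvF ((ρ (uw he_gen w))⁻¹ p) = toVec (cvc (t1683_pd.walk w p.val)) := by
    unfold cvF
    rw [← hw]
  rw [e, hs, ← toVec_mv]
  rcases h with h | h | h
  · exact ⟨F4.o, by decide, by rw [h, toVec_smul]; rfl⟩
  · exact ⟨F4.w, by decide, by rw [h, toVec_smul]; rfl⟩
  · exact ⟨F4.v, by decide, by rw [h, toVec_smul]; rfl⟩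

omit hw in
/-- two eigenvectors whose sum is an eigenvector: the equation of their eigenvalues -/
theorem eig_sum (A : Matrix I4 I4 F4) (a b c : V4) (hc : c = V4.add a b) (la lb lc : F4)
    (ha : Matrix.mulVec A (toVec a) = la • toVec a)
    (hb : Matrix.mulVec A (toVec b) = lb • toVec b)
    (hcc : Matrix.mulVec A (toVec c) = lc • toVec c) :
    V4.add (V4.smul la a) (V4.smul lb b) = V4.smul lc c := by
  apply toVec_injective
  rw [toVec_add, toVec_smul, toVec_smul, toVec_smul, ← ha, ← hb, ← hcc, hc, toVec_add,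
    Matrix.mulVec_add]

/-- only the identity matrix acts as the identity on the points -/
theorem rel_one_unique (s : Sp4) (h : Rel ρ spHom cvF 1 s) : s = 1 := by
  have h' : Rel ρ spHom cvF (uw he_gen []) s := by rw [uw_nil]; exact h
  have hat : ∀ (n : ℕ) (hn : n < t1683_pd.N) (e : V4), cvc n = e →
      ∃ l : F4, l ≠ 0 ∧ Matrix.mulVec (spHom s) (toVec e) = l • toVec e := by
    intro n hn e he
    obtain ⟨l, hl, e1⟩ := rel_at ρ hw [] s h' n hn
    rw [show t1683_pd.walk [] n = n from rfl, he] at e1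
    exact ⟨l, hl, e1⟩
  obtain ⟨l0, -, h0⟩ := hat _ pt_e0_lt _ pt_e0
  obtain ⟨l1, -, h1⟩ := hat _ pt_e1_lt _ pt_e1
  obtain ⟨l2, -, h2⟩ := hat _ pt_e2_lt _ pt_e2
  obtain ⟨l3, -, h3⟩ := hat _ pt_e3_lt _ pt_e3
  obtain ⟨m1, -, g1⟩ := hat _ pt_e01_lt _ pt_e01
  obtain ⟨m2, -, g2⟩ := hat _ pt_e02_lt _ pt_e02
  obtain ⟨m3, -, g3⟩ := hat _ pt_e03_lt _ pt_e03
  have q1 : l1 = l0 := eigen1 l0 l1 m1 (eig_sum _ _ _ _ rfl _ _ _ h0 h1 g1)
  have q2 : l2 = l0 := eigen2 l0 l2 m2 (eig_sum _ _ _ _ rfl _ _ _ h0 h2 g2)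
  have q3 : l3 = l0 := eigen3 l0 l3 m3 (eig_sum _ _ _ _ rfl _ _ _ h0 h3 g3)
  rw [q1] at h1
  rw [q2] at h2
  rw [q3] at h3
  have hA : spHom s = toMat (M4.sc l0) := by
    rw [toMat_sc]
    exact eq_smul_one_of_basis _ l0 h0 h1 h2 h3
  have hmem : toMat (M4.sc l0) ∈ Matrix.symplecticGroup (Fin 2) F4 := by
    rw [← hA]
    exact s.2
  rw [SymplecticGroup.mem_iff, ← toMat_jm, ← toMat_tr, ← toMat_mul, ← toMat_mul] at hmem
  have hl : l0 = F4.o := sc_symp l0 (toMat_injective hmem)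
  rw [hl] at hA
  apply Subtype.ext
  have hA' : (s : Matrix I4 I4 F4) = toMat (M4.sc F4.o) := hA
  rw [hA']
  exact toMat_one

/-- the generator `(ab)^2` does not act as a matrix -/
theorem k6_not_rel (s : Sp4) : ¬ Rel ρ spHom cvF (uw he_gen gw6) s := by
  intro h
  obtain ⟨l0, hl0, h0⟩ := rel_at ρ hw gw6 s h _ k6_lt0
  obtain ⟨l1, hl1, h1⟩ := rel_at ρ hw gw6 s h _ k6_lt1
  obtain ⟨l2, hl2, h2⟩ := rel_at ρ hw gw6 s h _ k6_lt2
  obtain ⟨l3, hl3, h3⟩ := rel_at ρ hw gw6 s h _ k6_lt3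
  rw [k6_walk0, k6_src0, k6_dst0] at h0
  rw [k6_walk1, k6_src1, k6_dst1] at h1
  rw [k6_walk2, k6_src2, k6_dst2, k6_src2_eq, toVec_add, Matrix.mulVec_add, h0, h1] at h2
  rw [k6_walk3, k6_src3] at h3
  have h3' : l0 • toVec ⟨F4.o, F4.z, F4.o, F4.v⟩ + F4.w • l1 • toVec ⟨F4.z, F4.o, F4.v, F4.w⟩ =
      l3 • toVec ⟨F4.o, F4.w, F4.z, F4.z⟩ := by
    rw [← h3, ← h0, ← h1, ← Matrix.mulVec_smul, ← Matrix.mulVec_add, ← toVec_smul, ← toVec_add,
      ← k6_src3_eq]
  refine k6_no l0 l1 l2 l3 hl0 hl1 hl2 hl3 ?_ ?_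
  · apply toVec_injective
    rw [toVec_add, toVec_smul, toVec_smul, toVec_smul]
    exact h2
  · apply toVec_injective
    rw [toVec_add, toVec_smul, toVec_smul, toVec_smul, toVec_smul]
    exact h3'

/-- the matrices of the straight line program come from the graph -/
theorem slp_mem (k : ℕ) : ∃ x ∈ graphSub ρ spHom cvF Hp, spHom x.2 = toMat (matAt slpCodes k) := by
  have hsymp : ∀ i, i < 6 → toMat (matAt slpCodes i) ∈ Matrix.symplecticGroup (Fin 2) F4 := by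
    intro i hi
    exact toMat_mem_sp _ (of_decide_eq_true
      (List.all_eq_true.mp symp_ok i (List.mem_range.mpr hi)))
  have hgen : ∀ (i : ℕ) (hi : i < 6) (w : List He.Gen), w ∈ t1683_sw →
      allR (genOK w (matAt slpCodes i)) 2058 12 0 = true →
      ∃ x ∈ graphSub ρ spHom cvF Hp, spHom x.2 = toMat (matAt slpCodes i) := by
    intro i hi w hwm hk
    refine ⟨(uw he_gen w, ⟨toMat (matAt slpCodes i), hsymp i hi⟩), ⟨mem_swGrp he_gen _ w hwm, ?_⟩,
      rfl⟩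
    exact gen_rel ρ hw w i hk _ rfl
  have hP : ∀ j, j < 6 + slpIns.length →
      ∃ x ∈ graphSub ρ spHom cvF Hp, spHom x.2 = toMat (matAt slpCodes j) := by
    refine slpChk_sound
      (fun A => ∃ x ∈ graphSub ρ spHom cvF Hp, spHom x.2 = toMat A) ?_ slpCodes slpIns 6 slp_ok ?_
    · rintro A B ⟨x, hx, ex⟩ ⟨y, hy, ey⟩
      refine ⟨x * y, Subgroup.mul_mem _ hx hy, ?_⟩
      rw [Prod.snd_mul, map_mul, ex, ey, toMat_mul]
    · intro j hj
      interval_cases j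
      · exact hgen 0 (by decide) gw0 (by decide) gen_ok0
      · exact hgen 1 (by decide) gw1 (by decide) gen_ok1
      · exact hgen 2 (by decide) gw2 (by decide) gen_ok2
      · exact hgen 3 (by decide) gw3 (by decide) gen_ok3
      · exact hgen 4 (by decide) gw4 (by decide) gen_ok4
      · exact hgen 5 (by decide) gw5 (by decide) gen_ok5
  by_cases hk : k < 6 + slpIns.length
  · exact hP k hk
  · refine ⟨1, Subgroup.one_mem _, ?_⟩
    rw [matAt_of_le slpCodes k (by rw [slp_len]; rw [ins_len] at hk; omega), toMat_one]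
    rfl

/-- the structure of the point stabiliser -/
theorem he_sp (hcard : Nat.card Hp = 1958400) :
    ∃ N : Subgroup He, N ≤ Hp ∧ N.relIndex Hp = 2 ∧ Nonempty (N ≃* Sp4) := by
  have hfinS : Finite Sp4 := inferInstance
  have hfinH : Finite Hp := Nat.finite_of_card_ne_zero (by rw [hcard]; decide)
  refine graph_iso Hp (graphSub ρ spHom cvF Hp) (fun x hx => hx.1) ?_ ?_ ?_ ?_
  · intro x hx h1
    have hr : Rel ρ spHom cvF 1 x.2 := by
      have := hx.2
      rw [h1] at this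
      exact this
    exact rel_one_unique ρ hw x.2 hr
  · -- surjectivity onto the symplectic group
    let K0 : Subgroup Sp4 := (graphSub ρ spHom cvF Hp).map (MonoidHom.snd He Sp4)
    have hK0 : ∀ k, ∃ s ∈ K0, spHom s = toMat (matAt slpCodes k) := by
      intro k
      obtain ⟨x, hx, e⟩ := slp_mem ρ hw k
      exact ⟨x.2, ⟨x, hx, rfl⟩, e⟩
    let b0 : V4 := ⟨F4.o, F4.z, F4.z, F4.z⟩
    let b1 : V4 := ⟨F4.z, F4.z, F4.o, F4.z⟩
    let b2 : V4 := ⟨F4.z, F4.o, F4.z, F4.z⟩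
    let b3 : V4 := ⟨F4.z, F4.z, F4.z, F4.o⟩
    let K1 : Subgroup Sp4 := K0 ⊓ fixV spHom b0
    let K2 : Subgroup Sp4 := K1 ⊓ fixV spHom b1
    let K3 : Subgroup Sp4 := K2 ⊓ fixV spHom b2
    let K4 : Subgroup Sp4 := K3 ⊓ fixV spHom b3
    have s0 : lv0.length * Nat.card K1 ≤ Nat.card K0 :=
      lvl_bound spHom K0 (matAt slpCodes) b0 lv0 (fun k _ => hK0 k)
        (lvlChk_nodup _ _ _ _ lvl_ok0)
    have s1 : lv1.length * Nat.card K2 ≤ Nat.card K1 := by
      refine lvl_bound spHom K1 (matAt slpCodes) b1 lv1 (fun k hk => ?_)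
        (lvlChk_nodup _ _ _ _ lvl_ok1)
      obtain ⟨s, hs, e⟩ := hK0 k
      have hf := lvlChk_fix _ _ _ _ lvl_ok1 k hk
      exact ⟨s, ⟨hs, mem_fixV_of spHom b0 s _ e (hf b0 (by simp [b0]))⟩, e⟩
    have s2 : lv2.length * Nat.card K3 ≤ Nat.card K2 := by
      refine lvl_bound spHom K2 (matAt slpCodes) b2 lv2 (fun k hk => ?_)
        (lvlChk_nodup _ _ _ _ lvl_ok2)
      obtain ⟨s, hs, e⟩ := hK0 k
      have hf := lvlChk_fix _ _ _ _ lvl_ok2 k hk
      exact ⟨s, ⟨⟨hs, mem_fixV_of spHom b0 s _ e (hf b0 (by simp [b0]))⟩,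
        mem_fixV_of spHom b1 s _ e (hf b1 (by simp [b1]))⟩, e⟩
    have s3 : lv3.length * Nat.card K4 ≤ Nat.card K3 := by
      refine lvl_bound spHom K3 (matAt slpCodes) b3 lv3 (fun k hk => ?_)
        (lvlChk_nodup _ _ _ _ lvl_ok3)
      obtain ⟨s, hs, e⟩ := hK0 k
      have hf := lvlChk_fix _ _ _ _ lvl_ok3 k hk
      exact ⟨s, ⟨⟨⟨hs, mem_fixV_of spHom b0 s _ e (hf b0 (by simp [b0]))⟩,
        mem_fixV_of spHom b1 s _ e (hf b1 (by simp [b1]))⟩,
        mem_fixV_of spHom b2 s _ e (hf b2 (by simp [b2]))⟩, e⟩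
    rw [lv_len0] at s0
    rw [lv_len1] at s1
    rw [lv_len2] at s2
    rw [lv_len3] at s3
    have hpos : 0 < Nat.card K4 := Nat.card_pos
    have hle : Nat.card K0 ≤ Nat.card Sp4 := Subgroup.card_le_card_group K0
    have hc := card_sp4
    have htop : K0 = ⊤ := Subgroup.eq_top_of_card_eq K0 (by omega)
    intro s
    have hs : s ∈ K0 := by rw [htop]; exact Subgroup.mem_top s
    obtain ⟨x, hx, e⟩ := hs
    refine ⟨x.1, ?_⟩
    have e' : x.2 = s := e
    rw [← e']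
    exact hx
  · exact ⟨uw he_gen gw6, mem_swGrp he_gen _ gw6 (by decide),
      fun s hs => k6_not_rel ρ hw s hs.2⟩
  · rw [hcard, card_sp4]

end Rep

end Cfsg.Agent.H94.HS
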